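import Mathlib
import Cfsg.Agent.Lib.PSL2.MaxPgl

/-!
# Subgroups of `PGL(2, F)` of order prime to the characteristic

By Dickson's theorem such a subgroup has commuting elements of order at least three, or it is a
copy of `A₄`, `S₄` or `A₅`.
-/

set_option autoImplicit false
set_option linter.unusedSectionVars false
set_option linter.unusedSimpArgs false
set_option linter.unusedVariables false
set_option linter.style.haveILetI false

namespace Cfsg.Agent.Lib.Ruiz.DicksonP

open Matrix Matrix.SpecialLinearGroup Subgroup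
open scoped MatrixGroups
open Cfsg.Agent.Lib.PSL2.Basic Cfsg.Agent.Lib.PSL2.Conj Cfsg.Agent.Lib.PSL2.Members
open Cfsg.Agent.Lib.PSL2.Dickson Cfsg.Agent.Lib.PSL2.MemberCyc Cfsg.Agent.Lib.PSL2.DicksonCor
open Cfsg.Agent.Lib.PSL2.MaxPgl

variable {F : Type*} [Field F] [Fintype F]

lemma comm_of_cyclic {H : Type*} [Group H] (hc : IsCyclic H) (a b : H) : a * b = b * a := by
  letI := IsCyclic.commGroup (α := H)
  exact mul_comm a b

/-- A subgroup of a frame of order prime to the characteristic is commutative. -/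
theorem comm_of_frame (p : ℕ) [hp : Fact p.Prime] [CharP F p] {H : Subgroup PSL(2, F)}
    {g : SL(2, F)} (hg : ∀ X, mkP X ∈ H → Up g X) (hH : ¬ p ∣ Nat.card H) {a b : PSL(2, F)}
    (ha : a ∈ H) (hb : b ∈ H) : a * b = b * a := by
  obtain ⟨X, rfl⟩ := mkP_surjective a
  obtain ⟨Y, rfl⟩ := mkP_surjective b
  have hX := hg X ha
  have hY := hg Y hb
  set C := X * Y * X⁻¹ * Y⁻¹ with hC
  have hCH : mkP C ∈ H := by
    rw [hC, map_mul, map_mul, map_mul, map_inv, map_inv]
    exact H.mul_mem (H.mul_mem (H.mul_mem ha hb) (H.inv_mem ha)) (H.inv_mem hb)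
  have hCu : Up g C := hg C hCH
  have hch : ch g C = 1 := by
    rw [hC, ch_mul (up_inv hY), ch_mul (up_inv hX), ch_mul hY, ch_inv hX, ch_inv hY]
    have h1 := ch_ne_zero hX
    have h2 := ch_ne_zero hY
    field_simp
  have hT : T g C = x ((T g C).1 0 1) := by
    apply ext2
    · rw [x_00]; exact hch
    · rw [x_01]
    · rw [x_10]; exact hCu
    · rw [x_11, T_11 hCu, hch, inv_one]
  have hCp : C ^ p = 1 := by
    apply T_inj g
    have e : T g (C ^ p) = (T g C) ^ p := by
      simp only [T, conj_pow]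
    rw [e, hT, x_pow_char, T_one]
  have hmk : (mkP C) ^ p = 1 := by rw [← map_pow, hCp, map_one]
  have hmk1 : mkP C = 1 := by
    by_contra hne
    have ho : orderOf (mkP C) = p := orderOf_eq_prime hmk hne
    have hd : orderOf (⟨mkP C, hCH⟩ : H) ∣ Nat.card H := orderOf_dvd_natCard _
    have : orderOf (⟨mkP C, hCH⟩ : H) = orderOf (mkP C) := Subgroup.orderOf_mk _ _
    rw [this, ho] at hd
    exact hH hd
  rw [← map_mul, ← map_mul]
  have hC' : mkP (X * Y) = mkP (Y * X) := by
    have e : X * Y = C * (Y * X) := by rw [hC]; group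
    rw [e, map_mul, hmk1, one_mul]
  exact hC'

/-- The Dickson trichotomy for subgroups of order prime to the characteristic. -/
theorem psl_pprime (p : ℕ) [hp : Fact p.Prime] [CharP F p] (hp2 : p ≠ 2) (H : Subgroup PSL(2, F))
    (hH : ¬ p ∣ Nat.card H) :
    (∀ a ∈ H, ∀ b ∈ H, 3 ≤ orderOf a → 3 ≤ orderOf b → a * b = b * a) ∨
      Nonempty (H ≃* alternatingGroup (Fin 4)) ∨ Nonempty (H ≃* Equiv.Perm (Fin 4)) ∨
      Nonempty (H ≃* alternatingGroup (Fin 5)) := by
  classical
  rcases dickson_frame p H with h | ⟨A, hA, hd, hle⟩ | ⟨A, hA, hd, hAH, hidx⟩ | ⟨g, hg⟩ | h | h | h |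
      ⟨K, iK, iKt, m, hm, hK⟩
  · left
    intro a ha b hb _ _
    haveI : Subsingleton H := (Nat.card_eq_one_iff_unique.1 h).1
    have : (⟨a, ha⟩ : H) = ⟨b, hb⟩ := Subsingleton.elim _ _
    have e : a = b := congrArg Subtype.val this
    rw [e]
  · left
    intro a ha b hb _ _
    have := comm_of_cyclic (cbar_cyclic hA hd).1 ⟨a, hle ha⟩ ⟨b, hle hb⟩
    exact congrArg Subtype.val this
  · left
    have hc := (member_cyclic H hA hd).1
    haveI hnorm : (member H A).Normal := Subgroup.normal_of_index_eq_two hidx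
    have hmem : ∀ a : H, 3 ≤ orderOf a → a ∈ member H A := by
      intro a ho
      by_contra hy
      have hN : a ∈ normalizer (member H A : Set H) := by
        rw [Subgroup.normalizer_eq_top_iff.2 hnorm]
        trivial
      obtain ⟨Y, hY⟩ := exists_lift a
      have h1 := conj_eq_inv_of_normalizer hA hd hN hy hY (a := ⟨mkP A, hAH⟩) (self_mem_member hAH)
        (fun h => mkP_ne_one hA (congrArg Subtype.val h)) rfl
      have h2 := Cfsg.Agent.Lib.PSL2.TorusCore.tr_eq_zero_of_inverts hA h1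
      have h3 := (Cfsg.Agent.Lib.PSL2.Torus.mul_self_eq_neg_one_iff Y).2 h2
      have h4 : a * a = 1 := by
        apply Subtype.ext
        show a.1 * a.1 = 1
        rw [← hY, ← map_mul, h3, mkP_neg_one]
      have h5 : orderOf a ≤ 2 := orderOf_le_of_pow_eq_one (by norm_num) (by rw [pow_two, h4])
      omega
    intro a ha b hb hoa hob
    have h1 := hmem ⟨a, ha⟩ (by rwa [Subgroup.orderOf_mk])
    have h2 := hmem ⟨b, hb⟩ (by rwa [Subgroup.orderOf_mk])
    have := comm_of_cyclic hc ⟨_, h1⟩ ⟨_, h2⟩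
    exact congrArg (fun z : member H A => ((z : H) : PSL(2, F))) this
  · left
    intro a ha b hb _ _
    exact comm_of_frame p hg hH ha hb
  · exact Or.inr (Or.inl h)
  · exact Or.inr (Or.inr (Or.inl h))
  · exact Or.inr (Or.inr (Or.inr h))
  · exfalso
    have hpK : p ∣ Fintype.card K := by
      haveI : NeZero m := ⟨by
        rintro rfl
        rw [pow_zero] at hm
        have : 1 < Fintype.card F := Fintype.one_lt_card
        omega⟩
      obtain ⟨n, -, hn⟩ := FiniteField.card F p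
      have h1 : ∀ r : ℕ, r.Prime → r ∣ Fintype.card K → r = p := by
        intro r hr hrK
        have h2 : r ∣ p ^ (n : ℕ) := by
          rw [← hn, ← hm]
          exact dvd_pow hrK (NeZero.ne m)
        exact (Nat.prime_dvd_prime_iff_eq hr hp.out).1 (hr.dvd_of_dvd_pow h2)
      have h3 : Fintype.card K ≠ 1 := Fintype.one_lt_card.ne'
      obtain ⟨r, hr, hrK⟩ := Nat.exists_prime_and_dvd h3
      rw [← h1 r hr hrK]
      exact hrK
    apply hH
    rcases hK with ⟨⟨e⟩⟩ | ⟨⟨e⟩⟩
    · rw [Nat.card_congr e.toEquiv]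
      have h1 := card_PSL2_mul_dd K
      have h2 : p ∣ Nat.card PSL(2, K) * dd K := by
        rw [h1]
        exact Dvd.dvd.mul_right hpK _
      rcases (hp.out.dvd_mul).1 h2 with h3 | h3
      · exact h3
      · exfalso
        have h4 := h3.trans (dd_dvd_two K)
        exact hp2 ((Nat.prime_dvd_prime_iff_eq hp.out Nat.prime_two).1 h4)
    · rw [Nat.card_congr e.toEquiv, Cfsg.Agent.Lib.PSL2.FieldEmbed.card_PGL]
      exact Dvd.dvd.mul_right hpK _

lemma pow_of_equiv {G X : Type*} [Group G] [Group X] {W : Subgroup G} (φ : W ≃* X) {a : G}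
    (ha : a ∈ W) {n : ℕ} (h : φ ⟨a, ha⟩ ^ n = 1) : a ^ n = 1 := by
  have h1 : φ ((⟨a, ha⟩ : W) ^ n) = 1 := by rw [map_pow, h]
  have h2 : (⟨a, ha⟩ : W) ^ n = 1 := φ.map_eq_one_iff.1 h1
  exact congrArg Subtype.val h2

set_option maxRecDepth 100000 in
lemma a4_key : ∀ x : alternatingGroup (Fin 4), x ^ 2 = 1 ∨ x ^ 3 = 1 ∨ x ^ 5 = 1 := by decide

set_option maxRecDepth 1000000 in
lemma a5_key : ∀ x : alternatingGroup (Fin 5), x ^ 2 = 1 ∨ x ^ 3 = 1 ∨ x ^ 5 = 1 := by decide

/-- The trichotomy for subgroups of `PGL(2, F)`. -/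
theorem pgl_pprime (p : ℕ) [hp : Fact p.Prime] [CharP F p] (hp2 : p ≠ 2) (W : Subgroup (PG F))
    (hW : ¬ p ∣ Nat.card W) :
    (∀ a ∈ W, ∀ b ∈ W, 3 ≤ orderOf a → 3 ≤ orderOf b → a * b = b * a) ∨
      Nonempty (W ≃* Equiv.Perm (Fin 4)) ∨
      (∀ a ∈ W, a ^ 2 = 1 ∨ a ^ 3 = 1 ∨ a ^ 5 = 1) := by
  have hodd : Odd (Fintype.card F) := by
    obtain ⟨n, -, hn⟩ := FiniteField.card F p
    rw [hn]
    exact (hp.out.odd_of_ne_two hp2).pow
  obtain ⟨F', iF, iFt, ι, f, hf, hc, -⟩ := exists_ext_embed (F := F) hodd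
  haveI : CharP F' p := charP_of_injective_ringHom ι.injective p
  let e₁ : W ≃* W.map f := W.equivMapOfInjective f hf
  have hcard : ¬ p ∣ Nat.card (W.map f) := by
    rw [← Nat.card_congr e₁.toEquiv]
    exact hW
  rcases psl_pprime p hp2 (W.map f) hcard with h | ⟨⟨e⟩⟩ | ⟨⟨e⟩⟩ | ⟨⟨e⟩⟩
  · left
    intro a ha b hb hoa hob
    apply hf
    rw [map_mul, map_mul]
    apply h _ (Subgroup.mem_map_of_mem f ha) _ (Subgroup.mem_map_of_mem f hb)
    · rwa [orderOf_injective f hf]
    · rwa [orderOf_injective f hf]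
  · right; right
    intro a ha
    rcases a4_key ((e₁.trans e) ⟨a, ha⟩) with h1 | h1 | h1
    · exact Or.inl (pow_of_equiv _ ha h1)
    · exact Or.inr (Or.inl (pow_of_equiv _ ha h1))
    · exact Or.inr (Or.inr (pow_of_equiv _ ha h1))
  · right; left
    exact ⟨e₁.trans e⟩
  · right; right
    intro a ha
    rcases a5_key ((e₁.trans e) ⟨a, ha⟩) with h1 | h1 | h1
    · exact Or.inl (pow_of_equiv _ ha h1)
    · exact Or.inr (Or.inl (pow_of_equiv _ ha h1))
    · exact Or.inr (Or.inr (pow_of_equiv _ ha h1))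

end Cfsg.Agent.Lib.Ruiz.DicksonP
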