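import Mathlib
import Cfsg.Agent.Lib.Ruiz.Good
import Cfsg.Agent.Lib.Ruiz.DicksonP

/-!
# The image of the normalizer of an extraspecial Sylow subgroup in `PGL(2, p)`
-/

set_option autoImplicit false
set_option linter.unusedSectionVars false
set_option linter.unusedVariables false
set_option linter.style.haveILetI false

namespace Cfsg.Agent.Lib.Ruiz.Main

open Subgroup Matrix
open scoped commutatorElement MatrixGroups
open Cfsg.Agent.Lib.Ruiz.Coord Cfsg.Agent.Lib.Ruiz.Good Cfsg.Agent.Lib.Ruiz.Linear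
open Cfsg.Agent.Lib.Ruiz.DicksonP Cfsg.Agent.Lib.PSL2.MaxPgl
open Matrix.ProjGenLinGroup

variable {G : Type*} [Group G] [Finite G] {p : ℕ} [hp : Fact p.Prime]
variable {P : Sylow p G} (D : Ext (P : Subgroup G) p)

/-- The normalizer of `P` acting on `P / Z(P)`. -/
noncomputable def Rn : normalizer (((P : Subgroup G)) : Set G) →* GL (Fin 2) (ZMod p) :=
  Ext.rho D |>.comp (P : Subgroup G).normalizerMonoidHom

variable {D}

lemma Rn_pi (t : normalizer (((P : Subgroup G)) : Set G)) {x y : (P : Subgroup G)}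
    (h : (t : G) * x * (t : G)⁻¹ = y) : (Rn D t).1 *ᵥ D.pi x = D.pi y := by
  have h1 : ((P : Subgroup G).normalizerMonoidHom t) x = y := Subtype.ext h
  have h2 := Ext.rho_pi (D := D) ((P : Subgroup G).normalizerMonoidHom t) x
  rw [h1] at h2
  exact h2

lemma Rn_det (t : normalizer (((P : Subgroup G)) : Set G)) {b : ZMod p}
    (h : (t : G) * (D.z : G) * (t : G)⁻¹ = ep (D.z : G) b) : (Rn D t).1.det = b := by
  have h1 := Ext.map_z (D := D) ((P : Subgroup G).normalizerMonoidHom t)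
  have h2 := congrArg Subtype.val h1
  have h3 : (((P : Subgroup G).normalizerMonoidHom t D.z : (P : Subgroup G)) : G) =
      (t : G) * (D.z : G) * (t : G)⁻¹ := rfl
  rw [h3, h, coe_ep] at h2
  have hz1 : (D.z : G) ≠ 1 := by
    intro h4
    exact D.z_ne (Subtype.ext h4)
  exact (ep_injective (coe_z_pow (D := D)) hz1 h2).symm

lemma Rn_of_mem (t : normalizer (((P : Subgroup G)) : Set G)) (ht : (t : G) ∈ (P : Subgroup G)) :
    Rn D t = 1 := by
  apply Units.ext
  apply Ext.mat_ext (D := D)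
  intro x
  have h1 : (Rn D t).1 *ᵥ D.pi x = D.pi (⟨t, ht⟩ * x * (⟨t, ht⟩ : (P : Subgroup G))⁻¹) :=
    Rn_pi t rfl
  rw [h1, D.pi_conj]
  simp

/-- The image of the normalizer of `P` in `PGL(2, p)`. -/
noncomputable def W (D : Ext (P : Subgroup G) p) : Subgroup (PG (ZMod p)) :=
  ((mk : GL (Fin 2) (ZMod p) →* PG (ZMod p)).comp (Rn D)).range

/-- The image of the normalizer has order prime to `p`. -/
theorem W_pprime : ¬ p ∣ Nat.card (W D) := by
  intro h
  set f : normalizer (((P : Subgroup G)) : Set G) →* PG (ZMod p) :=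
    (mk : GL (Fin 2) (ZMod p) →* PG (ZMod p)).comp (Rn D) with hf
  have h1 : f.ker.index = Nat.card (W D) := Subgroup.index_ker f
  have hle : (P : Subgroup G) ≤ (normalizer (((P : Subgroup G)) : Set G) : Subgroup G) :=
    le_normalizer
  let S : Sylow p (normalizer (((P : Subgroup G)) : Set G)) := P.subtype hle
  have h2 : (S : Subgroup _) ≤ f.ker := by
    intro t ht
    have ht' : (t : G) ∈ (P : Subgroup G) := ht
    rw [MonoidHom.mem_ker, hf]
    show mk (Rn D t) = 1
    rw [Rn_of_mem t ht', mk_one]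
  have h3 : f.ker.index ∣ (S : Subgroup _).index := Subgroup.index_dvd_of_le h2
  rw [h1] at h3
  exact S.not_dvd_index (h.trans h3)

lemma mkR_mem (t : normalizer (((P : Subgroup G)) : Set G)) : mk (Rn D t) ∈ W D :=
  ⟨t, rfl⟩

/-- The data attached to a vector: an element of the normalizer with eigenvector `v` and
determinant the inverse of the eigenvalue. -/
def Fixes (D : Ext (P : Subgroup G) p) (a : ZMod p) (v : Fin 2 → ZMod p) : Prop :=
  ∃ t : normalizer (((P : Subgroup G)) : Set G), (Rn D t).1 *ᵥ v = a • v ∧ (Rn D t).1.det = a⁻¹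

/-- The order of an element fixing a line in this way. -/
lemma dvd_orderOf {a : ZMod p} (ha : ∀ n : ℕ, a ^ n = 1 → (p - 1) ∣ n) {v : Fin 2 → ZMod p}
    (hv : v ≠ 0) {t : normalizer (((P : Subgroup G)) : Set G)} (h1 : (Rn D t).1 *ᵥ v = a • v)
    (h2 : (Rn D t).1.det = a⁻¹) : (p - 1) ∣ 3 * orderOf (mk (Rn D t)) :=
  ha _ (pow_three_mul_eq_one hv h1 h2 (pow_orderOf_eq_one _))

instance instFinitePG : Finite (PG (ZMod p)) := by
  have : Finite (GL (Fin 2) (ZMod p)) := inferInstance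
  exact Finite.of_surjective (mk : GL (Fin 2) (ZMod p) → PG (ZMod p)) mk_surjective

lemma orderOf_ne_zero' (x : PG (ZMod p)) : orderOf x ≠ 0 :=
  (orderOf_pos x).ne'

set_option maxRecDepth 100000 in
lemma s4_key : ∀ x : Equiv.Perm (Fin 4), x ^ 2 = 1 ∨ x ^ 3 = 1 ∨ x ^ 4 = 1 := by decide

lemma orderOf_le_four_of_s4 (e : (W D) ≃* Equiv.Perm (Fin 4)) {x : PG (ZMod p)} (hx : x ∈ W D) :
    orderOf x ∣ 2 ∨ orderOf x ∣ 3 ∨ orderOf x ∣ 4 := by
  rcases s4_key (e ⟨x, hx⟩) with h | h | h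
  · exact Or.inl (orderOf_dvd_of_pow_eq_one (pow_of_equiv e hx h))
  · exact Or.inr (Or.inl (orderOf_dvd_of_pow_eq_one (pow_of_equiv e hx h)))
  · exact Or.inr (Or.inr (orderOf_dvd_of_pow_eq_one (pow_of_equiv e hx h)))

/-- Three lines with long elements are impossible. -/
theorem no_three (hp2 : p ≠ 2) {a : ZMod p} (ha : ∀ n : ℕ, a ^ n = 1 → (p - 1) ∣ n)
    (hnum : ∀ k : ℕ, k ≠ 0 → (p - 1) ∣ 3 * k → 6 ≤ k) {v₁ v₂ v₃ : Fin 2 → ZMod p}
    (h12 : Ind v₁ v₂) (h13 : Ind v₁ v₃) (h23 : Ind v₂ v₃)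
    (h₁ : Fixes D a v₁) (h₂ : Fixes D a v₂) (h₃ : Fixes D a v₃) : False := by
  obtain ⟨t₁, e₁, d₁⟩ := h₁
  obtain ⟨t₂, e₂, d₂⟩ := h₂
  obtain ⟨t₃, e₃, d₃⟩ := h₃
  have o₁ : 6 ≤ orderOf (mk (Rn D t₁)) :=
    hnum _ (orderOf_ne_zero' _) (dvd_orderOf ha (ne_zero_of_ind_left h12) e₁ d₁)
  have o₂ : 6 ≤ orderOf (mk (Rn D t₂)) :=
    hnum _ (orderOf_ne_zero' _) (dvd_orderOf ha (ne_zero_of_ind_right h12) e₂ d₂)
  have o₃ : 6 ≤ orderOf (mk (Rn D t₃)) :=
    hnum _ (orderOf_ne_zero' _) (dvd_orderOf ha (ne_zero_of_ind_right h13) e₃ d₃)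
  rcases pgl_pprime p hp2 (W D) W_pprime with hc | ⟨⟨e⟩⟩ | h3
  · have ne1 : mk (Rn D t₁) ≠ 1 := by
      intro h
      rw [h, orderOf_one] at o₁
      omega
    have nesq : ∀ x : PG (ZMod p), 6 ≤ orderOf x → x * x ≠ 1 := by
      intro x hx h
      have h1 : orderOf x ≤ 2 := orderOf_le_of_pow_eq_one (by norm_num) (by rw [pow_two, h])
      omega
    exact core e₁ e₂ e₃ h12 h13 h23
      (hc _ (mkR_mem t₁) _ (mkR_mem t₂) (by omega) (by omega))
      (hc _ (mkR_mem t₁) _ (mkR_mem t₃) (by omega) (by omega))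
      ne1 (nesq _ o₂) (nesq _ o₃)
  · rcases orderOf_le_four_of_s4 e (mkR_mem t₁) with h | h | h <;>
      have := Nat.le_of_dvd (by norm_num) h <;> omega
  · rcases h3 _ (mkR_mem t₁) with h | h | h <;>
      have := orderOf_le_of_pow_eq_one (by norm_num) h <;> omega

lemma ind_v (u w : ZMod p) (h : u ≠ w) : Ind (![1, u] : Fin 2 → ZMod p) ![1, w] := by
  show (1 : ZMod p) * w - u * 1 ≠ 0
  rw [one_mul, mul_one]
  exact sub_ne_zero.2 h.symm

lemma eig_of_mk_eq {M N : GL (Fin 2) (ZMod p)} (h : mk M = mk N) {v : Fin 2 → ZMod p} {a : ZMod p}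
    (hN : N.1 *ᵥ v = a • v) : ∃ c : ZMod p, M.1 *ᵥ v = c • v := by
  obtain ⟨u, hu⟩ := mk_eq_mk_iff.1 h.symm
  refine ⟨u * a, ?_⟩
  have e : M.1 = N.1 * (u : ZMod p) • 1 := by
    have := congrArg (fun A : GL (Fin 2) (ZMod p) => A.1) hu
    simp only [Units.val_mul] at this
    rw [← this]
    congr 1
    ext i j
    simp [Matrix.GeneralLinearGroup.scalar, Matrix.one_apply, Matrix.diagonal_apply, Matrix.scalar]
  rw [e, ← Matrix.mulVec_mulVec, Matrix.smul_mulVec, Matrix.one_mulVec, Matrix.mulVec_smul, hN,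
    smul_smul]

set_option maxRecDepth 100000 in
lemma s4_order_four_card :
    (Finset.univ.filter (fun g : Equiv.Perm (Fin 4) => g ^ 4 = 1 ∧ g ^ 2 ≠ 1)).card = 6 := by
  decide

/-- When every line is fixed and `p = 13`: the exceptional case. -/
theorem no_thirteen (hp2 : p ≠ 2) (h13 : p = 13) {a : ZMod p} (ha : ∀ n : ℕ, a ^ n = 1 → (p - 1) ∣ n)
    (hall : ∀ u : ZMod p, Fixes D a ![1, u]) : False := by
  classical
  have hone : ∀ u : ZMod p, (![1, u] : Fin 2 → ZMod p) ≠ 0 := by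
    intro u h
    have := congrFun h 0
    simp at this
  choose t e d using hall
  have o : ∀ u, 4 ∣ orderOf (mk (Rn D (t u))) := by
    intro u
    have h1 := dvd_orderOf ha (hone u) (e u) (d u)
    have h2 : p - 1 = 12 := by omega
    rw [h2] at h1
    omega
  have hp3 : (2 : ZMod p) ≠ 0 := by
    intro h
    have := (ZMod.natCast_eq_zero_iff 2 p).1 (by exact_mod_cast h)
    rw [h13] at this
    omega
  have d01 : (0 : ZMod p) ≠ 1 := zero_ne_one
  have d02 : (0 : ZMod p) ≠ 2 := hp3.symm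
  have d12 : (1 : ZMod p) ≠ 2 := by
    intro h
    have h2 : (1 : ZMod p) = 0 := by
      have : (2 : ZMod p) = 1 + 1 := by norm_num
      rw [this] at h
      exact left_eq_add.1 h
    exact one_ne_zero h2
  rcases pgl_pprime p hp2 (W D) W_pprime with hc | ⟨⟨φ⟩⟩ | h3
  · have ge : ∀ u, 4 ≤ orderOf (mk (Rn D (t u))) := fun u =>
      Nat.le_of_dvd (orderOf_pos _) (o u)
    have ne1 : mk (Rn D (t 0)) ≠ 1 := by
      intro h
      have := ge 0
      rw [h, orderOf_one] at this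
      omega
    have nesq : ∀ u, mk (Rn D (t u)) * mk (Rn D (t u)) ≠ 1 := by
      intro u h
      have h1 : orderOf (mk (Rn D (t u))) ≤ 2 :=
        orderOf_le_of_pow_eq_one (by norm_num) (by rw [pow_two, h])
      have := ge u
      omega
    exact core (e 0) (e 1) (e 2) (ind_v _ _ d01) (ind_v _ _ d02) (ind_v _ _ d12)
      (hc _ (mkR_mem _) _ (mkR_mem _) (by have := ge 0; omega) (by have := ge 1; omega))
      (hc _ (mkR_mem _) _ (mkR_mem _) (by have := ge 0; omega) (by have := ge 2; omega))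
      ne1 (nesq _) (nesq _)
  · -- the group `S₄`: pigeonhole on the elements of order four
    let f : ZMod p → Equiv.Perm (Fin 4) := fun u => φ ⟨_, mkR_mem (D := D) (t u)⟩
    have hord : ∀ u, orderOf (mk (Rn D (t u))) = 4 := by
      intro u
      rcases orderOf_le_four_of_s4 φ (mkR_mem (D := D) (t u)) with h | h | h
      · have := Nat.dvd_trans (o u) h
        omega
      · have := Nat.dvd_trans (o u) h
        omega
      · exact Nat.dvd_antisymm h (o u)
    have hf : ∀ u ∈ (Finset.univ : Finset (ZMod p)), f u ∈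
        (Finset.univ.filter (fun g : Equiv.Perm (Fin 4) => g ^ 4 = 1 ∧ g ^ 2 ≠ 1)) := by
      intro u _
      rw [Finset.mem_filter]
      refine ⟨Finset.mem_univ _, ?_, ?_⟩
      · have h1 := pow_orderOf_eq_one (mk (Rn D (t u)))
        rw [hord u] at h1
        rw [← map_pow]
        have h2 : (⟨_, mkR_mem (D := D) (t u)⟩ : W D) ^ 4 = 1 := Subtype.ext h1
        rw [h2, map_one]
      · intro h
        have h2 := pow_of_equiv φ (mkR_mem (D := D) (t u)) h
        have h3 := orderOf_dvd_of_pow_eq_one h2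
        rw [hord u] at h3
        omega
    have hcard : (Finset.univ.filter (fun g : Equiv.Perm (Fin 4) => g ^ 4 = 1 ∧ g ^ 2 ≠ 1)).card * 2 <
        (Finset.univ : Finset (ZMod p)).card := by
      rw [s4_order_four_card, Finset.card_univ, ZMod.card, h13]
      norm_num
    obtain ⟨g, -, hg⟩ := Finset.exists_lt_card_fiber_of_mul_lt_card_of_maps_to hf hcard
    obtain ⟨u₁, h₁, u₂, h₂, u₃, h₃, n12, n13, n23⟩ := Finset.two_lt_card.1 hg
    rw [Finset.mem_filter] at h₁ h₂ h₃
    have e12 : mk (Rn D (t u₁)) = mk (Rn D (t u₂)) := by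
      have := φ.injective (h₁.2.trans h₂.2.symm)
      exact congrArg Subtype.val this
    have e13 : mk (Rn D (t u₁)) = mk (Rn D (t u₃)) := by
      have := φ.injective (h₁.2.trans h₃.2.symm)
      exact congrArg Subtype.val this
    obtain ⟨c₂, hc₂⟩ := eig_of_mk_eq e12 (e u₂)
    obtain ⟨c₃, hc₃⟩ := eig_of_mk_eq e13 (e u₃)
    have h1 := mk_eq_one_of_three (e u₁) hc₂ hc₃ (ind_v _ _ n12) (ind_v _ _ n13) (ind_v _ _ n23)
    have h2 := hord u₁
    rw [h1, orderOf_one] at h2
    omega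
  · rcases h3 _ (mkR_mem (t 0)) with h | h | h
    · have h1 := orderOf_dvd_of_pow_eq_one h
      have := Nat.dvd_trans (o 0) h1
      omega
    · have h1 := orderOf_dvd_of_pow_eq_one h
      have := Nat.dvd_trans (o 0) h1
      omega
    · have h1 := orderOf_dvd_of_pow_eq_one h
      have := Nat.dvd_trans (o 0) h1
      omega

/-- A generator of the multiplicative group. -/
lemma exists_generator : ∃ a : ZMod p, a ≠ 0 ∧ ∀ n : ℕ, a ^ n = 1 → (p - 1) ∣ n := by
  obtain ⟨g, hg⟩ := IsCyclic.exists_generator (α := (ZMod p)ˣ)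
  refine ⟨(g : ZMod p), g.ne_zero, fun n hn => ?_⟩
  have h1 : orderOf g = p - 1 := by
    rw [orderOf_eq_card_of_forall_mem_zpowers hg, Nat.card_eq_fintype_card, ZMod.card_units_eq_totient,
      Nat.totient_prime hp.out]
  rw [← h1]
  apply orderOf_dvd_of_pow_eq_one
  apply Units.ext
  simpa using hn

end Cfsg.Agent.Lib.Ruiz.Main
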