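import Mathlib
import Cfsg.Agent.Lib.Ruiz.Main
import Cfsg.Agent.Lib.Transfer.FusionInvariant

/-!
# Radical lines, and the fusion argument when all elements are conjugate
-/

set_option autoImplicit false
set_option linter.unusedSectionVars false
set_option linter.unusedVariables false
set_option linter.style.haveILetI false
set_option linter.dupNamespace false

namespace Cfsg.Agent.Lib.Ruiz.Rad

open Subgroup Matrix
open scoped commutatorElement MatrixGroups
open Cfsg.Agent.Lib.Ruiz.Coord Cfsg.Agent.Lib.Ruiz.Good Cfsg.Agent.Lib.Ruiz.Linear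
open Cfsg.Agent.Lib.Ruiz.Main
open Cfsg.Agent.Lib.Transfer.FusionInvariant

variable {G : Type*} [Group G] [Finite G] {p : ℕ} [hp : Fact p.Prime]
variable {P : Sylow p G} {D : Ext (P : Subgroup G) p}

/-- Realized elementary matrices give a `Fixes` vector. -/
theorem fixes_of_real {w : (P : Subgroup G)} (hw : D.pi w ≠ 0) {a : ZMod p} (ha : a ≠ 0)
    (h12 : ∀ s : ZMod p, Real (w : G) (D.z : G) (e12 s))
    (h21 : ∀ s : ZMod p, Real (w : G) (D.z : G) (e21 s)) : Fixes D a (D.pi w) := by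
  obtain ⟨t, ht1, ht2⟩ := exists_diag (coe_pow_p D w) (coe_z_pow (D := D)) h12 h21 ha
  obtain ⟨t', ht', h1, h2⟩ := good_adjust (D := D) hw (mul_inv_cancel₀ ha) ht1 ht2
  refine ⟨⟨t', ht'⟩, ?_, ?_⟩
  · have h3 : t' * (w : G) * t'⁻¹ = ((ep w a : (P : Subgroup G)) : G) := by
      rw [coe_ep]; exact h1
    rw [Rn_pi (D := D) ⟨t', ht'⟩ h3, D.pi_ep]
  · exact Rn_det (D := D) ⟨t', ht'⟩ h2

lemma coe_commute_z (w : (P : Subgroup G)) : Commute (w : G) (D.z : G) := coe_z_comm (D := D) w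

/-- The matrices `e21 s` are realized inside `P`. -/
theorem real_e21 {w : (P : Subgroup G)} (hw : D.pi w ≠ 0) (s : ZMod p) :
    Real (w : G) (D.z : G) (e21 s) := by
  obtain ⟨y, hy⟩ := exists_conj_eq (D := D) hw s
  have hwp := coe_pow_p D w
  have hzp := coe_z_pow (D := D)
  have hc := coe_commute_z (D := D) w
  refine real_of_gens hwp hzp hc (g := (y : G)) ?_ ?_
  · have e : (e21 s *ᵥ ![1, 0] : Fin 2 → ZMod p) = ![1, s] := by
      funext i
      fin_cases i <;> simp [e21, Matrix.mulVec, dotProduct, Fin.sum_univ_two]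
    rw [e, hy, E]
    simp only [Matrix.cons_val_zero, Matrix.cons_val_one, ep_one hwp]
    exact ((hc.pow_right _).symm.eq : _)
  · have e : (e21 s *ᵥ ![0, 1] : Fin 2 → ZMod p) = ![0, 1] := by
      funext i
      fin_cases i <;> simp [e21, Matrix.mulVec, dotProduct, Fin.sum_univ_two]
    rw [e, E_e1 hzp]
    have := (coe_commute_z (D := D) y).eq
    rw [this]
    group

/-- A radical vector: conjugation by `t₀` moves the centre to the line of `w`. -/
def Rad (D : Ext (P : Subgroup G) p) (v : Fin 2 → ZMod p) : Prop :=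
  ∃ (t₀ : G) (w u : (P : Subgroup G)), D.pi w = v ∧ D.pi w ≠ 0 ∧ D.pi u ≠ 0 ∧
    t₀ * (D.z : G) * t₀⁻¹ = w ∧ t₀ * (u : G) * t₀⁻¹ = D.z

/-- A radical vector is fixed by an element of the normalizer in the right way. -/
theorem fixes_of_rad {v : Fin 2 → ZMod p} (hr : Rad D v) {a : ZMod p} (ha : a ≠ 0) : Fixes D a v := by
  obtain ⟨t₀, w, u, rfl, hw, hu, h1, h2⟩ := hr
  refine fixes_of_real hw ha ?_ (real_e21 hw)
  intro s
  obtain ⟨y, hy⟩ := exists_conj_eq (D := D) hu s
  have hwp := coe_pow_p D w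
  have hzp := coe_z_pow (D := D)
  have hc := coe_commute_z (D := D) w
  have hi1 : t₀⁻¹ * (w : G) * t₀ = (D.z : G) := by
    rw [← h1]; group
  have hi2 : t₀⁻¹ * (D.z : G) * t₀ = (u : G) := by
    rw [← h2]; group
  have hyz : (y : G) * (D.z : G) * (y : G)⁻¹ = (D.z : G) := by
    have := (coe_commute_z (D := D) y).eq
    rw [this]
    group
  refine real_of_gens hwp hzp hc (g := t₀ * y * t₀⁻¹) ?_ ?_
  · have e : (e12 s *ᵥ ![1, 0] : Fin 2 → ZMod p) = ![1, 0] := by
      funext i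
      fin_cases i <;> simp [e12, Matrix.mulVec, dotProduct, Fin.sum_univ_two]
    rw [e, E_e0 hwp]
    calc t₀ * y * t₀⁻¹ * (w : G) * (t₀ * y * t₀⁻¹)⁻¹
        = t₀ * ((y : G) * (t₀⁻¹ * (w : G) * t₀) * (y : G)⁻¹) * t₀⁻¹ := by group
      _ = t₀ * (D.z : G) * t₀⁻¹ := by rw [hi1, hyz]
      _ = w := h1
  · have e : (e12 s *ᵥ ![0, 1] : Fin 2 → ZMod p) = ![s, 1] := by
      funext i
      fin_cases i <;> simp [e12, Matrix.mulVec, dotProduct, Fin.sum_univ_two]
    rw [e, E]
    simp only [Matrix.cons_val_zero, Matrix.cons_val_one, ep_one hzp]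
    calc t₀ * y * t₀⁻¹ * (D.z : G) * (t₀ * y * t₀⁻¹)⁻¹
        = t₀ * ((y : G) * (t₀⁻¹ * (D.z : G) * t₀) * (y : G)⁻¹) * t₀⁻¹ := by group
      _ = t₀ * (ep (D.z : G) s * (u : G)) * t₀⁻¹ := by rw [hi2, hy]
      _ = (t₀ * ep (D.z : G) s * t₀⁻¹) * (t₀ * (u : G) * t₀⁻¹) := by group
      _ = ep (w : G) s * (D.z : G) := by rw [ep_conj, h1, h2]

/-- Scaling a `Fixes` vector. -/
lemma fixes_transfer {a : ZMod p} {v₀ : Fin 2 → ZMod p}
    {t : normalizer (((P : Subgroup G)) : Set G)} {c : ZMod p} (hc : c ≠ 0)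
    (h : Fixes D a (c • (Rn D t).1 *ᵥ v₀)) : Fixes D a v₀ := by
  obtain ⟨t', e, d⟩ := h
  refine ⟨t⁻¹ * t' * t, ?_, ?_⟩
  · rw [map_mul, map_mul, Units.val_mul, Units.val_mul, ← Matrix.mulVec_mulVec,
      ← Matrix.mulVec_mulVec]
    have e1 : (Rn D t').1 *ᵥ ((Rn D t).1 *ᵥ v₀) = a • (Rn D t).1 *ᵥ v₀ := by
      have h1 := congrArg (fun x => c⁻¹ • x) e
      simp only [Matrix.mulVec_smul, smul_smul, inv_mul_cancel₀ hc, one_smul] at h1
      rw [h1, mul_comm c⁻¹, mul_assoc, mul_inv_cancel₀ hc, mul_one]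
    rw [e1, Matrix.mulVec_smul, Matrix.mulVec_mulVec, ← Units.val_mul, ← map_mul]
    simp
  · rw [map_mul, map_mul, Units.val_mul, Units.val_mul, Matrix.det_mul, Matrix.det_mul, d]
    have h1 : (Rn D t⁻¹).1.det * (Rn D t).1.det = 1 := by
      rw [← Matrix.det_mul, ← Units.val_mul, ← map_mul]
      simp
    calc (Rn D t⁻¹).1.det * a⁻¹ * (Rn D t).1.det
        = ((Rn D t⁻¹).1.det * (Rn D t).1.det) * a⁻¹ := by ring
      _ = a⁻¹ := by rw [h1, one_mul]

/-- The orbit, up to scalars. -/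
def Orb (D : Ext (P : Subgroup G) p) (v₀ v : Fin 2 → ZMod p) : Prop :=
  ∃ (t : normalizer (((P : Subgroup G)) : Set G)) (c : ZMod p), c ≠ 0 ∧ v = c • (Rn D t).1 *ᵥ v₀

lemma orb_self (v₀ : Fin 2 → ZMod p) : Orb D v₀ v₀ :=
  ⟨1, 1, one_ne_zero, by simp⟩

lemma orb_smul {v₀ v : Fin 2 → ZMod p} (h : Orb D v₀ v) {c : ZMod p} (hc : c ≠ 0) :
    Orb D v₀ (c • v) := by
  obtain ⟨t, d, hd, rfl⟩ := h
  exact ⟨t, c * d, mul_ne_zero hc hd, by rw [smul_smul]⟩

lemma orb_map {v₀ v : Fin 2 → ZMod p} (h : Orb D v₀ v) (t : normalizer (((P : Subgroup G)) : Set G)) :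
    Orb D v₀ ((Rn D t).1 *ᵥ v) := by
  obtain ⟨t', d, hd, rfl⟩ := h
  refine ⟨t * t', d, hd, ?_⟩
  rw [Matrix.mulVec_smul, Matrix.mulVec_mulVec, ← Units.val_mul, ← map_mul]

lemma orb_ne_zero {v₀ v : Fin 2 → ZMod p} (hv₀ : v₀ ≠ 0) (h : Orb D v₀ v) : v ≠ 0 := by
  obtain ⟨t, d, hd, rfl⟩ := h
  intro h0
  apply hv₀
  have h1 : (Rn D t).1 *ᵥ v₀ = 0 := by
    rcases smul_eq_zero.1 h0 with h2 | h2
    · exact absurd h2 hd
    · exact h2
  have h2 := congrArg (fun x => (Rn D t⁻¹).1 *ᵥ x) h1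
  simp only [Matrix.mulVec_zero, Matrix.mulVec_mulVec, ← Units.val_mul, ← map_mul] at h2
  simpa using h2

/-- Dependence of the image of a proper subgroup of `P`. -/
theorem not_ind_of_lt {Y : Subgroup G} (hY : Y ≤ (P : Subgroup G)) (hne : Y ≠ (P : Subgroup G))
    {y₁ y₂ : (P : Subgroup G)} (h₁ : (y₁ : G) ∈ Y) (h₂ : (y₂ : G) ∈ Y) :
    ¬ Ind (D.pi y₁) (D.pi y₂) := by
  intro hI
  apply hne
  apply le_antisymm hY
  have hd : D.pi y₁ 0 * D.pi y₂ 1 - D.pi y₁ 1 * D.pi y₂ 0 ≠ 0 := hI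
  set d := D.pi y₁ 0 * D.pi y₂ 1 - D.pi y₁ 1 * D.pi y₂ 0 with hddef
  -- `z ∈ Y`
  have hz : (D.z : G) ∈ Y := by
    have h1 : ⁅y₁, y₂⁆ = ep D.z d := D.comm_eq y₁ y₂
    have h2 : (⁅y₁, y₂⁆ : (P : Subgroup G)).1 ∈ Y := by
      have : (⁅y₁, y₂⁆ : (P : Subgroup G)).1 = (y₁ : G) * y₂ * (y₁ : G)⁻¹ * (y₂ : G)⁻¹ := rfl
      rw [this]
      exact mul_mem (mul_mem (mul_mem h₁ h₂) (inv_mem h₁)) (inv_mem h₂)
    rw [h1] at h2
    have h3 : (D.z : (P : Subgroup G)) = ep (ep D.z d) d⁻¹ := (ep_inv_back D.z_pow hd).symm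
    have h4 : ((D.z : (P : Subgroup G)) : G) = ((ep (ep D.z d) d⁻¹ : (P : Subgroup G)) : G) :=
      congrArg Subtype.val h3
    rw [h4, coe_ep]
    exact pow_mem h2 _
  have hep : ∀ (y : (P : Subgroup G)) (c : ZMod p), (y : G) ∈ Y → ((ep y c : (P : Subgroup G)) : G) ∈ Y := by
    intro y c hy
    rw [coe_ep]
    exact pow_mem hy _
  intro u hu
  let U : (P : Subgroup G) := ⟨u, hu⟩
  set α := (D.pi U 0 * D.pi y₂ 1 - D.pi U 1 * D.pi y₂ 0) / d with hα
  set β := (D.pi y₁ 0 * D.pi U 1 - D.pi y₁ 1 * D.pi U 0) / d with hβ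
  let r : (P : Subgroup G) := ep y₁ α * ep y₂ β
  have hr : D.pi r = D.pi U := by
    rw [D.pi_mul, D.pi_ep, D.pi_ep]
    funext i
    fin_cases i
    · simp only [Fin.zero_eta, Fin.isValue, Pi.add_apply, Pi.smul_apply, smul_eq_mul, hα, hβ]
      field_simp
      rw [hddef]
      ring
    · simp only [Fin.mk_one, Fin.isValue, Pi.add_apply, Pi.smul_apply, smul_eq_mul, hα, hβ]
      field_simp
      rw [hddef]
      ring
  have hc := (Ext.pi_eq_iff (D := D)).1 hr
  obtain ⟨s, hs⟩ := D.center_eq _ hc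
  have hU : U = r * ep D.z s := by
    rw [← hs]
    group
  have hmem : ((r * ep D.z s : (P : Subgroup G)) : G) ∈ Y := by
    rw [Subgroup.coe_mul]
    refine mul_mem ?_ ?_
    · show ((ep y₁ α * ep y₂ β : (P : Subgroup G)) : G) ∈ Y
      rw [Subgroup.coe_mul]
      exact mul_mem (hep _ _ h₁) (hep _ _ h₂)
    · rw [coe_ep]
      exact pow_mem hz _
  rw [← hU] at hmem
  exact hmem

/-- The mixed case gives a radical vector. -/
theorem rad_of_mixed {Y : Subgroup G} (hY : Y ≤ (P : Subgroup G)) {n : G}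
    (hn : n ∈ normalizer (Y : Set G)) (hz : (D.z : G) ∈ Y) {w : (P : Subgroup G)}
    (hw : n * (D.z : G) * n⁻¹ = w) (hw0 : D.pi w ≠ 0) : Rad D (D.pi w) := by
  have hu : n⁻¹ * (D.z : G) * n ∈ Y := by
    have h1 := (Subgroup.mem_normalizer_iff.1 (inv_mem hn) (D.z : G)).1 hz
    simpa using h1
  let u : (P : Subgroup G) := ⟨_, hY hu⟩
  refine ⟨n, w, u, rfl, hw0, ?_, hw, ?_⟩
  · intro h0
    have hcen : u ∈ center (P : Subgroup G) := (D.pi_eq_zero u).1 h0
    have hu1 : u ≠ 1 := by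
      intro h1
      have h2 : n⁻¹ * (D.z : G) * n = 1 := congrArg Subtype.val h1
      have h3 : (D.z : G) = 1 := by
        have : (D.z : G) = n * (n⁻¹ * (D.z : G) * n) * n⁻¹ := by group
        rw [this, h2]
        group
      exact D.z_ne (Subtype.ext h3)
    obtain ⟨r, hr, hr1, hr2⟩ := D.z_eq_ep_of_central hcen hu1
    have h4 : (D.z : G) = ep (u : G) r⁻¹ := by
      have := congrArg Subtype.val hr2
      rwa [coe_ep] at this
    have h5 : n * (u : G) * n⁻¹ = (D.z : G) := by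
      show n * (n⁻¹ * (D.z : G) * n) * n⁻¹ = _
      group
    have h6 : (w : G) = ep (D.z : G) r⁻¹ := by
      rw [← hw]
      conv_lhs => rw [h4]
      rw [ep_conj, h5]
    have h7 : w = ep D.z r⁻¹ := by
      apply Subtype.ext
      rw [coe_ep]
      exact h6
    apply hw0
    rw [h7, D.pi_ep, D.pi_z, smul_zero]
  · show n * (n⁻¹ * (D.z : G) * n) * n⁻¹ = _
    group

/-- The fusion argument. -/
theorem exists_rad (hconj : ∀ x y : (P : Subgroup G), x ≠ 1 → y ≠ 1 → ∃ g : G, g * (x : G) * g⁻¹ = (y : G))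
    {v₀ : Fin 2 → ZMod p} (hv₀ : v₀ ≠ 0) : ∃ v, Orb D v₀ v ∧ Rad D v := by
  classical
  by_contra hno
  have hno' : ∀ v, Orb D v₀ v → ¬ Rad D v := fun v h1 h2 => hno ⟨v, h1, h2⟩
  let χ : G → Prop := fun g => ∃ h : g ∈ (P : Subgroup G), Orb D v₀ (D.pi ⟨g, h⟩)
  have hχ : ∀ Y : Subgroup G, Y ≤ (P : Subgroup G) → FullyNormalized p (P : Subgroup G) Y →
      ∀ n ∈ normalizer (Y : Set G), ∀ y ∈ Y, χ (n * y * n⁻¹) = χ y := by
    intro Y hY _ n hn y hy
    have hy' : n * y * n⁻¹ ∈ Y := (Subgroup.mem_normalizer_iff.1 hn y).1 hy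
    have hyP : y ∈ (P : Subgroup G) := hY hy
    have hyP' : n * y * n⁻¹ ∈ (P : Subgroup G) := hY hy'
    have e1 : χ y ↔ Orb D v₀ (D.pi ⟨y, hyP⟩) :=
      ⟨fun ⟨h, h1⟩ => h1, fun h1 => ⟨hyP, h1⟩⟩
    have e2 : χ (n * y * n⁻¹) ↔ Orb D v₀ (D.pi ⟨_, hyP'⟩) :=
      ⟨fun ⟨h, h1⟩ => h1, fun h1 => ⟨hyP', h1⟩⟩
    apply propext
    rw [e1, e2]
    by_cases hYP : Y = (P : Subgroup G)
    · subst hYP
      have h1 : (Rn D ⟨n, hn⟩).1 *ᵥ D.pi ⟨y, hyP⟩ = D.pi ⟨_, hyP'⟩ := Rn_pi (D := D) ⟨n, hn⟩ rfl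
      have h2 : (Rn D (⟨n, hn⟩ : normalizer _)⁻¹).1 *ᵥ D.pi ⟨_, hyP'⟩ = D.pi ⟨y, hyP⟩ := by
        apply Rn_pi (D := D)
        show n⁻¹ * (n * y * n⁻¹) * n⁻¹⁻¹ = y
        group
      constructor
      · intro h
        rw [← h2]
        exact orb_map h _
      · intro h
        rw [← h1]
        exact orb_map h _
    · have hdep := not_ind_of_lt (D := D) hY hYP (y₁ := ⟨_, hyP'⟩) (y₂ := ⟨y, hyP⟩) hy' hy
      by_cases h0 : D.pi ⟨y, hyP⟩ = 0
      · by_cases h0' : D.pi ⟨_, hyP'⟩ = 0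
        · rw [h0, h0']
        · -- `y` is central, its conjugate is not
          have hyc : (⟨y, hyP⟩ : (P : Subgroup G)) ∈ center (P : Subgroup G) := (D.pi_eq_zero _).1 h0
          have hy1 : (⟨y, hyP⟩ : (P : Subgroup G)) ≠ 1 := by
            intro h1
            have h2 : y = 1 := congrArg Subtype.val h1
            apply h0'
            have h3 : (⟨_, hyP'⟩ : (P : Subgroup G)) = 1 := by
              apply Subtype.ext
              show n * y * n⁻¹ = 1
              rw [h2]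
              group
            rw [h3, D.pi_one]
          obtain ⟨s, hs, hs1, hs2⟩ := D.z_eq_ep_of_central hyc hy1
          have hz : (D.z : G) = ep y s⁻¹ := by
            have := congrArg Subtype.val hs2
            rwa [coe_ep] at this
          have hzY : (D.z : G) ∈ Y := by
            rw [hz]
            exact pow_mem hy _
          let w : (P : Subgroup G) := ep ⟨_, hyP'⟩ s⁻¹
          have hw : n * (D.z : G) * n⁻¹ = w := by
            rw [coe_ep]
            conv_lhs => rw [hz]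
            rw [ep_conj]
          have hpw : D.pi w = s⁻¹ • D.pi ⟨_, hyP'⟩ := D.pi_ep _ _
          have hs0 : s⁻¹ ≠ 0 := inv_ne_zero hs
          have hw0 : D.pi w ≠ 0 := by
            rw [hpw]
            exact smul_ne_zero hs0 h0'
          have hrad := rad_of_mixed (D := D) hY hn hzY hw hw0
          constructor
          · intro h
            exact absurd hrad (hno' _ (by rw [hpw]; exact orb_smul h hs0))
          · intro h
            exact absurd h (by
              rw [h0]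
              intro h2
              exact orb_ne_zero hv₀ h2 rfl)
      · by_cases h0' : D.pi ⟨_, hyP'⟩ = 0
        · -- the conjugate is central, `y` is not
          have hyc : (⟨_, hyP'⟩ : (P : Subgroup G)) ∈ center (P : Subgroup G) := (D.pi_eq_zero _).1 h0'
          have hy1 : (⟨_, hyP'⟩ : (P : Subgroup G)) ≠ 1 := by
            intro h1
            have h2 : n * y * n⁻¹ = 1 := congrArg Subtype.val h1
            apply h0
            have h4 : y = 1 := by
              have : y = n⁻¹ * (n * y * n⁻¹) * n := by group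
              rw [this, h2]
              group
            have h3 : (⟨y, hyP⟩ : (P : Subgroup G)) = 1 := Subtype.ext h4
            rw [h3, D.pi_one]
          obtain ⟨s, hs, hs1, hs2⟩ := D.z_eq_ep_of_central hyc hy1
          have hz : (D.z : G) = ep (n * y * n⁻¹) s⁻¹ := by
            have := congrArg Subtype.val hs2
            rwa [coe_ep] at this
          have hzY : (D.z : G) ∈ Y := by
            rw [hz]
            exact pow_mem hy' _
          let w : (P : Subgroup G) := ep ⟨y, hyP⟩ s⁻¹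
          have hw : n⁻¹ * (D.z : G) * n⁻¹⁻¹ = w := by
            rw [coe_ep]
            conv_lhs => rw [hz]
            rw [ep_conj]
            congr 1
            group
          have hpw : D.pi w = s⁻¹ • D.pi ⟨y, hyP⟩ := D.pi_ep _ _
          have hs0 : s⁻¹ ≠ 0 := inv_ne_zero hs
          have hw0 : D.pi w ≠ 0 := by
            rw [hpw]
            exact smul_ne_zero hs0 h0
          have hrad := rad_of_mixed (D := D) hY (inv_mem hn) hzY hw hw0
          constructor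
          · intro h
            exact absurd h (by
              rw [h0']
              intro h2
              exact orb_ne_zero hv₀ h2 rfl)
          · intro h
            exact absurd hrad (hno' _ (by rw [hpw]; exact orb_smul h hs0))
        · -- both are noncentral: they lie on the same line
          obtain ⟨c, hc⟩ := exists_eq_smul_of_not_ind h0 hdep
          have hc0 : c ≠ 0 := by
            rintro rfl
            rw [zero_smul] at hc
            exact h0' hc
          have hc' : D.pi ⟨y, hyP⟩ = c⁻¹ • D.pi ⟨_, hyP'⟩ := by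
            rw [hc, smul_smul, inv_mul_cancel₀ hc0, one_smul]
          constructor
          · intro h
            rw [hc']
            exact orb_smul h (inv_ne_zero hc0)
          · intro h
            rw [hc]
            exact orb_smul h hc0
  -- apply the fusion theorem
  obtain ⟨x, hx⟩ := D.pi_surj v₀
  have hx1 : x ≠ 1 := by
    rintro rfl
    rw [D.pi_one] at hx
    exact hv₀ hx.symm
  obtain ⟨g, hg⟩ := hconj x D.z hx1 D.z_ne
  have hkey := fusion_invariant P χ hχ x.2 g (by rw [hg]; exact (D.z).2)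
  have h1 : χ (x : G) := ⟨x.2, by
    have : (⟨(x : G), x.2⟩ : (P : Subgroup G)) = x := rfl
    rw [this, hx]
    exact orb_self _⟩
  rw [← hkey, hg] at h1
  obtain ⟨h2, h3⟩ := h1
  have h4 : (⟨(D.z : G), h2⟩ : (P : Subgroup G)) = D.z := rfl
  rw [h4, D.pi_z] at h3
  exact orb_ne_zero hv₀ h3 rfl

/-- All lines are fixed when all elements are conjugate. -/
theorem fixes_all (hconj : ∀ x y : (P : Subgroup G), x ≠ 1 → y ≠ 1 → ∃ g : G, g * (x : G) * g⁻¹ = (y : G))
    {a : ZMod p} (ha : a ≠ 0) {v₀ : Fin 2 → ZMod p} (hv₀ : v₀ ≠ 0) : Fixes D a v₀ := by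
  obtain ⟨v, ⟨t, c, hc, rfl⟩, hr⟩ := exists_rad (D := D) hconj hv₀
  exact fixes_transfer hc (fixes_of_rad hr ha)

end Cfsg.Agent.Lib.Ruiz.Rad
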